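import Cfsg.Agent.H877.BSgnDeg

/-!
# S4884, the Baby Monster: traces of products of two transpositions on the 4371-dimensional module, abstract part (helper966)

`Ax` : the signed axes `v x` in the rational space `W` of dimension 4371 and the transpositions `τ x`.

* `Ax.design` : `∑ y, F w (v y) • v y = 43470000 • w`;
* `Ax.trace_eq` : `trace A = (1 / 43470000) ∑ y, F (A (v y)) (v y)`;
* `Ax.tau_eq` : `τ x = -1 - (45/4) P_x + (1/7020) ∑_(c x z = 3) P_z` with `P_z w = F w (v z) • v z`;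
* `Ax.trace_mul` : the trace of `τ x * τ y` is 4371, 275, -53, 78, 51 (colours 1A, 2B, 2C, 3A, 4B).
-/

set_option autoImplicit false
set_option linter.unusedSectionVars false

namespace Cfsg.Agent.H966.BT

open Cfsg Module Cfsg.Agent.H816.IMEig Cfsg.Agent.H816.IMEig.Col Cfsg.Agent.H877.BSgn

/-- the values of the form -/
def fv : Fin 8 → ℚ := ![7, -7, 1, -1, 1/4, -1/4, 0, 0]

/-- the values `F (τ x (v y)) (v y)` -/
def gv : Fin 8 → ℚ := ![7, 7, 7, 7, 1/4, 1/4, -7, -1]

theorem fv_eq (u : Fin 8) : ((fv u : ℚ) : ℂ) = 7 * v0 u := by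
  fin_cases u <;> simp [fv, v0] <;> norm_num

/-- signed axes and transpositions -/
structure Ax (G : Type) [Group G] (X : Type) [MulAction G X] [Fintype X] [DecidableEq X] (c : X → X → Fin 8)
    {W : Type} [AddCommGroup W] [Module ℚ W] (F : LinearMap.BilinForm ℚ W) (v : X → W) (τ : X → (W →ₗ[ℚ] W)) : Prop where
  finG : Finite G
  col : Col G X (Fin 8) c 0
  num : ∃ x₀ z₀ : X, c x₀ z₀ = 3 ∧ ∀ u w, tt c x₀ z₀ u w = t8 u w
  rank : finrank ℚ W = 4371
  Fv : ∀ x y, F (v x) (v y) = fv (c x y)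
  symm : ∀ a b, F a b = F b a
  nondeg : ∀ a, (∀ b, F a b = 0) → a = 0
  span : Submodule.span ℚ (Set.range v) = ⊤
  card : Fintype.card X = 27143910000
  τsq : ∀ x w, τ x (τ x w) = w
  τF : ∀ x a b, F (τ x a) (τ x b) = F a b
  τv : ∀ x y, F (τ x (v y)) (v y) = gv (c x y)

/-- the rank one operator of an axis -/
noncomputable def PP {X W : Type} [AddCommGroup W] [Module ℚ W] (F : LinearMap.BilinForm ℚ W) (v : X → W) (z : X) :
    W →ₗ[ℚ] W := (F.flip (v z)).smulRight (v z)

theorem PP_apply {X W : Type} [AddCommGroup W] [Module ℚ W] (F : LinearMap.BilinForm ℚ W) (v : X → W) (z : X) (w : W) :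
    PP F v z w = F w (v z) • v z := rfl

theorem num_zero : ∀ u : Fin 8, ((∑ w, t8 u w : ℕ) : ℚ) * (gv u + 7 + 45/4 * fv u ^ 2) =
    1/7020 * (3968055 * ∑ w, (t8 u w : ℚ) * fv w ^ 2) := by
  intro u
  simp only [Fin.sum_univ_eight]
  fin_cases u <;> simp [t8, gv, fv] <;> norm_num

/-- the values of the traces of products of two transpositions -/
def tv : Fin 8 → ℚ := ![4371, 4371, 275, 275, 78, 78, -53, 51]

theorem num_tv : ∀ u : Fin 8, ((∑ w, t8 u w : ℕ) : ℚ) * (tv u - 493 + 45/4 * gv u) =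
    1/7020 * (3968055 * ∑ w, (t8 u w : ℚ) * gv w) := by
  intro u
  simp only [Fin.sum_univ_eight]
  fin_cases u <;> simp [t8, gv, tv] <;> norm_num

namespace Ax

variable {G : Type} [Group G] {X : Type} [MulAction G X] [Fintype X] [DecidableEq X] {c : X → X → Fin 8}
    {W : Type} [AddCommGroup W] [Module ℚ W] {F : LinearMap.BilinForm ℚ W} {v : X → W} {τ : X → (W →ₗ[ℚ] W)}
    (S : Ax G X c F v τ)
include S

theorem tt_eq {x z : X} (h : c x z = 3) (u w : Fin 8) : tt c x z u w = t8 u w := by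
  obtain ⟨x₀, z₀, h1, h2⟩ := S.num
  rw [← h2]
  exact S.col.tt_eq (h.trans h1.symm) u w

theorem kk_eq (x : X) (u : Fin 8) : kk c x u = ∑ w, t8 u w := by
  obtain ⟨x₀, z₀, h1, h2⟩ := S.num
  rw [S.col.kk_eq x x₀, kk_eq_sum x₀ z₀ u]
  exact Finset.sum_congr rfl fun w _ => h2 u w

theorem SS_eq : SS t8 v0 = 6210000 := by
  unfold SS
  simp only [Fin.sum_univ_eight]
  simp [t8, v0]
  norm_num

/-- the reproducing property of the values of the form -/
theorem fv_mul (x z : X) : ∑ y, fv (c x y) * fv (c y z) = 43470000 * fv (c x z) := by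
  obtain ⟨x₀, z₀, h1, h2⟩ := S.num
  have := S.finG
  have hE : Eig (c x₀ z₀) 0 t8 (-566865) v0 := by rw [h1]; exact eigv0
  have h3 := congrFun (S.col.EE_ee h2 hE z) x
  rw [EE_apply, Finset.sum_apply] at h3
  have h4 : ∑ y, v0 (c y z) * v0 (c x y) = SS t8 v0 * v0 (c x z) := h3
  rw [S.SS_eq] at h4
  have h5 : ((∑ y, fv (c x y) * fv (c y z) : ℚ) : ℂ) = ((43470000 * fv (c x z) : ℚ) : ℂ) := by
    push_cast
    rw [fv_eq]
    have h6 : ∀ y, ((fv (c x y) : ℚ) : ℂ) * ((fv (c y z) : ℚ) : ℂ) = 49 * (v0 (c y z) * v0 (c x y)) := by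
      intro y
      rw [fv_eq, fv_eq]
      ring
    rw [Finset.sum_congr rfl fun y _ => h6 y, ← Finset.mul_sum, h4]
    ring
  exact_mod_cast h5

theorem eq_zero {w : W} (h : ∀ z, F w (v z) = 0) : w = 0 := by
  apply S.nondeg
  intro b
  have hb : b ∈ Submodule.span ℚ (Set.range v) := by rw [S.span]; trivial
  refine Submodule.span_induction (p := fun b _ => F w b = 0) ?_ ?_ ?_ ?_ hb
  · rintro _ ⟨z, rfl⟩; exact h z
  · exact map_zero _
  · intro a b _ _ ha hb
    rw [map_add, ha, hb, add_zero]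
  · intro r a _ ha
    rw [map_smul, ha, smul_zero]

theorem ext {A B : W →ₗ[ℚ] W} (h : ∀ y, A (v y) = B (v y)) : A = B := by
  apply LinearMap.ext_on_range (v := v) S.span
  exact h

/-- **The design property.** -/
theorem design (w : W) : ∑ y, F w (v y) • v y = (43470000 : ℚ) • w := by
  have h1 : ∑ y, PP F v y = (43470000 : ℚ) • LinearMap.id := by
    apply S.ext
    intro x
    rw [LinearMap.sum_apply, LinearMap.smul_apply, LinearMap.id_apply, ← sub_eq_zero]
    apply S.eq_zero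
    intro z
    rw [map_sub, map_sum, map_smul, LinearMap.sub_apply, LinearMap.sum_apply, LinearMap.smul_apply, S.Fv, sub_eq_zero,
      smul_eq_mul, ← S.fv_mul]
    refine Finset.sum_congr rfl fun y _ => ?_
    rw [PP_apply, map_smul, LinearMap.smul_apply, S.Fv, S.Fv, smul_eq_mul]
  have h2 := LinearMap.congr_fun h1 w
  rw [LinearMap.sum_apply, LinearMap.smul_apply, LinearMap.id_apply] at h2
  exact h2

theorem finite_dim : FiniteDimensional ℚ W := Module.finite_of_finrank_pos (by rw [S.rank]; norm_num)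

theorem trace_PP (A : W →ₗ[ℚ] W) (z : X) : LinearMap.trace ℚ W (A ∘ₗ PP F v z) = F (A (v z)) (v z) := by
  have := S.finite_dim
  have h : A ∘ₗ PP F v z = (F.flip (v z)).smulRight (A (v z)) := by
    apply LinearMap.ext
    intro w
    rw [LinearMap.comp_apply, PP_apply, map_smul]
    rfl
  rw [h, LinearMap.trace_smulRight]
  rfl

/-- **The trace.** -/
theorem trace_eq (A : W →ₗ[ℚ] W) : 43470000 * LinearMap.trace ℚ W A = ∑ y, F (A (v y)) (v y) := by
  have h1 : (43470000 : ℚ) • A = ∑ y, A ∘ₗ PP F v y := by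
    apply LinearMap.ext
    intro w
    rw [LinearMap.smul_apply, ← map_smul, ← S.design w, map_sum, LinearMap.sum_apply]
    rfl
  rw [← smul_eq_mul, ← map_smul, h1, map_sum]
  exact Finset.sum_congr rfl fun y _ => S.trace_PP A y

theorem form_nonneg (w : W) : 0 ≤ F w w := by
  have h1 : (43470000 : ℚ) * F w w = ∑ y, F w (v y) * F w (v y) := by
    rw [← smul_eq_mul, ← map_smul, ← S.design w, map_sum]
    refine Finset.sum_congr rfl fun y _ => ?_
    rw [map_smul, smul_eq_mul]
  have h2 : 0 ≤ ∑ y, F w (v y) * F w (v y) := Finset.sum_nonneg fun y _ => mul_self_nonneg _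
  nlinarith

theorem form_eq_zero {w : W} (h : F w w = 0) : w = 0 := by
  have h1 : (43470000 : ℚ) * F w w = ∑ y, F w (v y) * F w (v y) := by
    rw [← smul_eq_mul, ← map_smul, ← S.design w, map_sum]
    refine Finset.sum_congr rfl fun y _ => ?_
    rw [map_smul, smul_eq_mul]
  rw [h, mul_zero, eq_comm, Finset.sum_eq_zero_iff_of_nonneg fun y _ => mul_self_nonneg _] at h1
  apply S.eq_zero
  intro z
  exact mul_self_eq_zero.1 (h1 z (Finset.mem_univ z))

/-- sums over the points of colour 3 from `x` -/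
theorem sum_col (x : X) (f : Fin 8 → ℚ) (a : Fin 8) (y : X) :
    ∑ z, (if c x z = a then f (c z y) else 0) = ∑ w, (nn c a x y w : ℚ) * f w := by
  have h1 : ∀ w, (nn c a x y w : ℚ) * f w = ∑ z, if c x z = a ∧ c z y = w then f w else 0 := by
    intro w
    rw [← Finset.sum_filter, Finset.sum_const, nsmul_eq_mul]
    congr 1
    unfold nn
    rw [Nat.card_eq_fintype_card, Fintype.card_subtype]
  simp only [h1]
  rw [Finset.sum_comm]
  refine Finset.sum_congr rfl fun z _ => ?_
  by_cases hz : c x z = a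
  · rw [if_pos hz, Finset.sum_eq_single (c z y)]
    · rw [if_pos ⟨hz, rfl⟩]
    · intro w _ hw
      rw [if_neg (fun h => hw h.2.symm)]
    · intro h; exact absurd (Finset.mem_univ _) h
  · rw [if_neg hz]
    symm
    apply Finset.sum_eq_zero
    intro w _
    rw [if_neg (fun h => hz h.1)]

/-- sums over the points of colour 3 from `x` in terms of the numbers `t8` -/
theorem sum_three (x y : X) (f : Fin 8 → ℚ) :
    ((∑ w, t8 (c x y) w : ℕ) : ℚ) * ∑ z, (if c x z = 3 then f (c z y) else 0) =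
      3968055 * ∑ w, (t8 (c x y) w : ℚ) * f w := by
  obtain ⟨x₀, z₀, h1, h2⟩ := S.num
  rw [S.sum_col, Finset.mul_sum, Finset.mul_sum]
  refine Finset.sum_congr rfl fun w _ => ?_
  have h3 := S.col.nn_mul (x₀ := x₀) (z₀ := z₀) x y w
  rw [h1, S.kk_eq, S.kk_eq, h2, kk3] at h3
  have h4 : ((nn c 3 x y w * ∑ w, t8 (c x y) w : ℕ) : ℚ) = ((3968055 * t8 (c x y) w : ℕ) : ℚ) := by rw [h3]
  rw [Nat.cast_mul, Nat.cast_mul] at h4
  calc ((∑ w, t8 (c x y) w : ℕ) : ℚ) * ((nn c 3 x y w : ℚ) * f w) =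
      ((nn c 3 x y w : ℚ) * ((∑ w, t8 (c x y) w : ℕ) : ℚ)) * f w := by ring
    _ = _ := by rw [h4]; push_cast; ring

/-- sums over all points -/
theorem sum_all (x : X) (f : Fin 8 → ℚ) : ∑ z, f (c x z) = ∑ u, ((∑ w, t8 u w : ℕ) : ℚ) * f u := by
  have h1 : ∀ u, ((∑ w, t8 u w : ℕ) : ℚ) * f u = ∑ z, if c x z = u then f u else 0 := by
    intro u
    rw [← S.kk_eq x u, ← Finset.sum_filter, Finset.sum_const, nsmul_eq_mul]
    congr 1
    unfold kk
    rw [Nat.card_eq_fintype_card, Fintype.card_subtype]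
  rw [Finset.sum_congr rfl fun u _ => h1 u, Finset.sum_comm]
  refine Finset.sum_congr rfl fun z _ => ?_
  rw [Finset.sum_ite_eq]
  simp

/-- the sum of the rank one operators of colour 3 -/
noncomputable def SP (_S : Ax G X c F v τ) (x : X) : W →ₗ[ℚ] W := ∑ z, if c x z = 3 then PP F v z else 0

theorem SP_apply (x : X) (w : W) : S.SP x w = ∑ z, if c x z = 3 then PP F v z w else 0 := by
  unfold SP
  rw [LinearMap.sum_apply]
  refine Finset.sum_congr rfl fun z _ => ?_
  split_ifs <;> rfl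

theorem trace_SP (A : W →ₗ[ℚ] W) (x : X) :
    LinearMap.trace ℚ W (A ∘ₗ S.SP x) = ∑ z, if c x z = 3 then F (A (v z)) (v z) else 0 := by
  have h : A ∘ₗ S.SP x = ∑ z, if c x z = 3 then A ∘ₗ PP F v z else 0 := by
    apply LinearMap.ext
    intro w
    rw [LinearMap.comp_apply, S.SP_apply, map_sum, LinearMap.sum_apply]
    refine Finset.sum_congr rfl fun z _ => ?_
    split_ifs
    · rfl
    · rw [map_zero]; rfl
  rw [h, map_sum]
  refine Finset.sum_congr rfl fun z _ => ?_
  split_ifs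
  · exact S.trace_PP A z
  · exact map_zero _

theorem trace_τ (x : X) : LinearMap.trace ℚ W (τ x) = -493 := by
  have h := S.trace_eq (τ x)
  rw [Finset.sum_congr rfl fun y _ => S.τv x y, S.sum_all x gv] at h
  simp only [Fin.sum_univ_eight] at h
  simp [t8, gv] at h
  linarith

theorem trace_one : LinearMap.trace ℚ W (1 : W →ₗ[ℚ] W) = 4371 := by
  have := S.finite_dim
  rw [LinearMap.trace_one, S.rank]
  norm_num

theorem card_ne (u : Fin 8) : ((∑ w, t8 u w : ℕ) : ℚ) ≠ 0 := by
  have h : ∀ u : Fin 8, (∑ w, t8 u w) ≠ 0 := by decide +kernel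
  exact_mod_cast h u

/-- the diagonal values of `SP x` -/
theorem SP_diag (x y : X) : 3968055 * ∑ w, (t8 (c x y) w : ℚ) * fv w ^ 2 =
    ((∑ w, t8 (c x y) w : ℕ) : ℚ) * F (S.SP x (v y)) (v y) := by
  rw [← S.sum_three x y (fun w => fv w ^ 2), S.SP_apply, map_sum, LinearMap.sum_apply]
  congr 1
  refine Finset.sum_congr rfl fun z _ => ?_
  split_ifs
  · rw [PP_apply, map_smul, LinearMap.smul_apply, S.Fv, S.Fv, S.col.symm y z, smul_eq_mul, pow_two]
  · rw [map_zero]; rfl

/-- the difference -/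
noncomputable def DD (_S : Ax G X c F v τ) (x : X) : W →ₗ[ℚ] W :=
  τ x + 1 + (45/4 : ℚ) • PP F v x - (1/7020 : ℚ) • _S.SP x

theorem DD_apply (x : X) (w : W) :
    S.DD x w = τ x w + w + (45/4 : ℚ) • PP F v x w - (1/7020 : ℚ) • S.SP x w := rfl

theorem DD_diag (x y : X) : F (S.DD x (v y)) (v y) = 0 := by
  have h1 := S.SP_diag x y
  have h2 := num_zero (c x y)
  have h3 := S.card_ne (c x y)
  apply mul_left_cancel₀ h3
  rw [mul_zero, S.DD_apply, map_sub, map_add, map_add, map_smul, map_smul, LinearMap.sub_apply, LinearMap.add_apply,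
    LinearMap.add_apply, LinearMap.smul_apply, LinearMap.smul_apply, S.τv, PP_apply, map_smul, LinearMap.smul_apply,
    S.Fv, S.Fv, S.Fv, S.col.self, S.col.symm y x, smul_eq_mul, smul_eq_mul, smul_eq_mul]
  have h4 : fv 0 = 7 := rfl
  rw [h4]
  linear_combination h2 + (1/7020) * h1

theorem trace_τ_DD (x : X) : LinearMap.trace ℚ W (τ x ∘ₗ S.DD x) = 0 := by
  have e1 : τ x ∘ₗ S.DD x = 1 + τ x + (45/4 : ℚ) • (τ x ∘ₗ PP F v x) - (1/7020 : ℚ) • (τ x ∘ₗ S.SP x) := by
    apply LinearMap.ext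
    intro w
    rw [LinearMap.comp_apply, S.DD_apply, map_sub, map_add, map_add, map_smul, map_smul, S.τsq]
    rfl
  rw [e1, map_sub, map_add, map_add, map_smul, map_smul, S.trace_one, S.trace_τ, S.trace_PP, S.trace_SP, S.τv]
  have e2 : ∀ z, (if c x z = 3 then F (τ x (v z)) (v z) else 0) = if c x z = 3 then (7 : ℚ) else 0 := by
    intro z
    split_ifs with h
    · rw [S.τv, h]; rfl
    · rfl
  rw [Finset.sum_congr rfl fun z _ => e2 z]
  have e3 : ∑ z, (if c x z = 3 then (7 : ℚ) else 0) = 3968055 * 7 := by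
    have h := S.sum_all x (fun u => if u = 3 then 7 else 0)
    rw [h]
    simp only [Fin.sum_univ_eight]
    simp [t8]
  rw [e3, S.col.self]
  have h4 : gv 0 = 7 := rfl
  rw [h4, smul_eq_mul, smul_eq_mul]
  norm_num

theorem trace_DD (x : X) : LinearMap.trace ℚ W (S.DD x) = 0 := by
  have h := S.trace_eq (S.DD x)
  rw [Finset.sum_congr rfl fun y _ => S.DD_diag x y, Finset.sum_const_zero] at h
  linarith

theorem trace_DD_sq (x : X) : LinearMap.trace ℚ W (S.DD x ∘ₗ S.DD x) = 0 := by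
  have e1 : S.DD x ∘ₗ S.DD x = S.DD x ∘ₗ τ x + S.DD x + (45/4 : ℚ) • (S.DD x ∘ₗ PP F v x) -
      (1/7020 : ℚ) • (S.DD x ∘ₗ S.SP x) := by
    apply LinearMap.ext
    intro w
    rw [LinearMap.comp_apply]
    conv_lhs => rw [S.DD_apply x w]
    rw [map_sub, map_add, map_add, map_smul, map_smul]
    rfl
  have := S.finite_dim
  have e2 : LinearMap.trace ℚ W (S.DD x ∘ₗ τ x) = 0 := by
    rw [LinearMap.trace_comp_comm', S.trace_τ_DD]
  rw [e1, map_sub, map_add, map_add, map_smul, map_smul, e2, S.trace_DD, S.trace_PP, S.trace_SP, S.DD_diag]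
  have e3 : ∀ z, (if c x z = 3 then F (S.DD x (v z)) (v z) else 0) = 0 := by
    intro z
    split_ifs
    · exact S.DD_diag x z
    · rfl
  rw [Finset.sum_congr rfl fun z _ => e3 z, Finset.sum_const_zero]
  simp

theorem DD_adj (x : X) (a b : W) : F (S.DD x a) b = F a (S.DD x b) := by
  have h1 : F (τ x a) b = F a (τ x b) := by
    have := S.τF x a (τ x b)
    rw [S.τsq] at this
    exact this
  have h2 : ∀ z, F (PP F v z a) b = F a (PP F v z b) := by
    intro z
    rw [PP_apply, PP_apply, map_smul, LinearMap.smul_apply, map_smul, smul_eq_mul, smul_eq_mul, S.symm b (v z), mul_comm]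
  have h3 : F (S.SP x a) b = F a (S.SP x b) := by
    rw [S.SP_apply, S.SP_apply, map_sum, LinearMap.sum_apply, map_sum]
    refine Finset.sum_congr rfl fun z _ => ?_
    split_ifs
    · exact h2 z
    · rw [map_zero, map_zero]; rfl
  rw [S.DD_apply, S.DD_apply, map_sub, map_add, map_add, map_smul, map_smul, LinearMap.sub_apply, LinearMap.add_apply,
    LinearMap.add_apply, LinearMap.smul_apply, LinearMap.smul_apply, map_sub, map_add, map_add, map_smul, map_smul,
    h1, h2, h3]

theorem DD_eq (x : X) : S.DD x = 0 := by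
  apply S.ext
  intro y
  rw [LinearMap.zero_apply]
  have h := S.trace_eq (S.DD x ∘ₗ S.DD x)
  rw [S.trace_DD_sq, mul_zero, eq_comm] at h
  have h1 : ∀ y, F ((S.DD x ∘ₗ S.DD x) (v y)) (v y) = F (S.DD x (v y)) (S.DD x (v y)) := by
    intro y
    rw [LinearMap.comp_apply, S.DD_adj]
  rw [Finset.sum_congr rfl fun y _ => h1 y, Finset.sum_eq_zero_iff_of_nonneg fun y _ => S.form_nonneg _] at h
  exact S.form_eq_zero (h y (Finset.mem_univ y))

/-- **The transpositions.** -/
theorem tau_eq (x : X) : τ x = -1 - (45/4 : ℚ) • PP F v x + (1/7020 : ℚ) • S.SP x := by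
  have h := S.DD_eq x
  unfold DD at h
  rw [← sub_eq_zero, ← h]
  abel

/-- **The trace of a product of two transpositions.** -/
theorem trace_mul (x y : X) : LinearMap.trace ℚ W (τ x ∘ₗ τ y) = tv (c x y) := by
  have h1 : LinearMap.trace ℚ W (τ y ∘ₗ τ x) = 493 - 45/4 * gv (c x y) + 1/7020 *
      ∑ z, if c x z = 3 then gv (c z y) else 0 := by
    have e1 : τ y ∘ₗ τ x = - τ y - (45/4 : ℚ) • (τ y ∘ₗ PP F v x) + (1/7020 : ℚ) • (τ y ∘ₗ S.SP x) := by
      conv_lhs => rw [S.tau_eq x]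
      apply LinearMap.ext
      intro w
      show τ y (-w - (45/4 : ℚ) • PP F v x w + (1/7020 : ℚ) • S.SP x w) = _
      rw [map_add, map_sub, map_neg, map_smul, map_smul]
      rfl
    rw [e1, map_add, map_sub, map_neg, map_smul, map_smul, S.trace_τ, S.trace_PP, S.trace_SP, S.τv, S.col.symm y x]
    have e2 : ∀ z, (if c x z = 3 then F (τ y (v z)) (v z) else 0) = if c x z = 3 then gv (c z y) else 0 := by
      intro z
      rw [S.τv, S.col.symm y z]
    rw [Finset.sum_congr rfl fun z _ => e2 z, smul_eq_mul, smul_eq_mul]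
    ring
  have h2 := S.sum_three x y gv
  have h3 := num_tv (c x y)
  have := S.finite_dim
  rw [LinearMap.trace_comp_comm', h1]
  apply mul_left_cancel₀ (S.card_ne (c x y))
  linear_combination (1/7020) * h2 - h3

end Ax

end Cfsg.Agent.H966.BT
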