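import Cfsg.Agent.H816.BT.Ops
import Cfsg.Agent.H797.BR.Cube
import Cfsg.Agent.H740.K4.Scheme

/-!
# The three signed constituents of the Baby Monster (helper966)

`psi k` (`k = 0, 1, 2`): the irreducible characters of degree `4371`, `63532485`, `13508418144` of the signed
permutation representation on the transpositions.

* `psi_one`, `psi_irr`, `psi_tX` : the value `-493`, `-468027`, `-18677152` at a transposition;
* `psi_ne` : they are pairwise different;
* `inner_cube_ne` : each is a constituent of the symmetric cube of `psi 0`.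
-/

set_option autoImplicit false
set_option linter.constructorNameAsVariable false
set_option linter.unusedSectionVars false

namespace Cfsg.Agent.H966.BT.Psi

open Cfsg Cfsg.Agent.Characters.Core Cfsg.Agent.BabyM.Model Cfsg.Agent.BabyM.Inst Cfsg.Agent.H995.BSch
  Cfsg.Agent.H995.BSchVal Cfsg.Agent.H877.BSgn Cfsg.Agent.H816.IMEig Cfsg.Agent.H816.IMEig.Col
  Cfsg.Agent.H816.BT.Sgn Cfsg.Agent.H816.BT.Ops
open scoped BigOperators ComplexConjugate

/-- The spherical functions, rational form. -/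
def q : Fin 3 → Fin 8 → ℚ :=
  ![![1, -1, 1/7, -1/7, 1/28, -1/28, 0, 0], ![1, -1, 7/969, -7/969, -1/20672, 1/20672, 0, 0],
    ![1, -1, -1/29393, 1/29393, 1/4630528, -1/4630528, 0, 0]]

/-- The spherical functions. -/
noncomputable def vk : Fin 3 → Fin 8 → ℂ := ![v0, v1, v2]

theorem vk_eq (k : Fin 3) (u : Fin 8) : vk k u = ((q k u : ℚ) : ℂ) := by
  fin_cases k
  · show v0 u = _
    fin_cases u <;> simp [v0, q]
  · show v1 u = _
    fin_cases u <;> simp [v1, q]
  · show v2 u = _
    fin_cases u <;> simp [v2, q]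

/-- The degrees. -/
def dg : Fin 3 → ℕ := ![4371, 63532485, 13508418144]

/-- The values at a transposition. -/
def tv : Fin 3 → ℤ := ![-493, -468027, -18677152]

/-- The eigenvalues. -/
noncomputable def th : Fin 3 → ℂ := ![-566865, -28665, 135]

theorem eig (k : Fin 3) : Eig (3 : Fin 8) 0 t8 (th k) (vk k) := by
  fin_cases k
  · exact eigv0
  · exact eigv1
  · exact eigv2

theorem sq (k : Fin 3) : (∑ u : Fin 8, ((∑ w, t8 u w : ℕ) : ℚ) * q k u ^ 2) = 27143910000 / dg k := by
  revert k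
  decide +kernel

theorem SSk (k : Fin 3) : SS t8 (vk k) = ((27143910000 / dg k : ℚ) : ℂ) := by
  rw [← sq k]
  unfold SS
  push_cast
  exact Finset.sum_congr rfl fun u _ => by rw [vk_eq]

theorem dg_pos (k : Fin 3) : (0 : ℚ) < dg k := by
  revert k
  decide +kernel

theorem SSk_ne (k : Fin 3) : SS t8 (vk k) ≠ 0 := by
  rw [SSk]
  have h := dg_pos k
  have h1 : (27143910000 / dg k : ℚ) ≠ 0 := div_ne_zero (by norm_num) h.ne'
  exact_mod_cast h1

section

variable [Fintype (X0 M)] [DecidableEq (X0 M)]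

/-- The character. -/
noncomputable def psi (k : Fin 3) : ↥M.G → ℂ := (isCol.sub (vk k)).toRepresentation.character

theorem psi_zero : psi 0 = (isCol.sub v0).toRepresentation.character := rfl

theorem psi_one_eq : psi 1 = (isCol.sub v1).toRepresentation.character := rfl

theorem psi_two_eq : psi 2 = (isCol.sub v2).toRepresentation.character := rfl

/-- The values are rational. -/
theorem psi_eq (k : Fin 3) (g : ↥M.G) :
    psi k g = ((dg k / 27143910000 * ∑ x : X0 M, q k (cc M x (g • x)) : ℚ) : ℂ) := by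
  obtain ⟨z₀, h3, h⟩ := exists_z0
  have hE := eig k
  rw [← h3] at hE
  have h1 := Cfsg.Agent.H740.K4.Scheme.character_eq isCol h hE (SSk_ne k) g
  have h2 : psi k g = (isCol.sub (vk k)).toRepresentation.character g := rfl
  rw [h2, h1, SSk, Rat.cast_mul, Rat.cast_sum]
  congr 1
  · rw [← Rat.cast_inv, inv_div]
  · exact Finset.sum_congr rfl fun x _ => vk_eq k _

theorem conj_psi (k : Fin 3) (g : ↥M.G) : conj (psi k g) = psi k g := by
  rw [psi_eq]
  exact map_ratCast (starRingEnd ℂ) _

theorem psi_irr (k : Fin 3) : IsIrrCharacter ↥M.G (psi k) := by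
  obtain ⟨z₀, h3, h⟩ := exists_z0
  have hE := eig k
  rw [← h3] at hE
  exact isIrrCharacter_of_rep _ (isCol.irr h hE)

theorem card_X : (Fintype.card (X0 M) : ℚ) = 27143910000 := by
  rw [← Nat.card_eq_fintype_card, card_X0 BabyM.Instance.all]
  norm_num

theorem q_zero (k : Fin 3) : q k 0 = 1 := by
  revert k
  decide +kernel

theorem psi_deg (k : Fin 3) : psi k 1 = dg k := by
  rw [psi_eq]
  have h1 : ∀ x : X0 M, q k (cc M x ((1 : ↥M.G) • x)) = 1 := by
    intro x
    rw [one_smul, isCol.self, q_zero]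
  simp only [h1]
  rw [Finset.sum_const, Finset.card_univ, nsmul_eq_mul, mul_one, card_X]
  norm_num

theorem sum_t (k : Fin 3) :
    (∑ u : Fin 8, ((∑ w, t8 u w : ℕ) : ℚ) * q k (ff (par u))) * dg k = 27143910000 * tv k := by
  revert k
  decide +kernel

/-- **The value at a transposition.** -/
theorem psi_tX (k : Fin 3) (x : X0 M) : psi k (tX x) = tv k := by
  rw [psi_eq]
  simp only [cc_t]
  rw [sum_col (fun u => q k (ff (par u))) x]
  have h := sum_t k
  have h1 : (dg k / 27143910000 * ∑ u : Fin 8, ((∑ w, t8 u w : ℕ) : ℚ) * q k (ff (par u)) : ℚ) = tv k := by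
    rw [div_mul_eq_mul_div, div_eq_iff (by norm_num), mul_comm (dg k : ℚ), h, mul_comm]
  rw [h1]
  norm_num

theorem psi_ne {k l : Fin 3} (h : k ≠ l) : psi k ≠ psi l := by
  intro h0
  have h1 := congrFun h0 1
  rw [psi_deg, psi_deg] at h1
  have h2 : dg k = dg l := by exact_mod_cast h1
  revert h h2
  clear h0 h1
  revert k l
  decide

theorem krein_ne (k : Fin 3) : (∑ u : Fin 8, ((∑ w, t8 u w : ℕ) : ℚ) * (q 0 u ^ 3 * q k u)) ≠ 0 := by
  revert k
  decide +kernel

/-- **Each of them is a constituent of the symmetric cube of the first.** -/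
theorem inner_cube_ne [Fintype ↥M.G] (k : Fin 3) :
    classInner (fun g : ↥M.G => (psi 0 g ^ 3 + 3 * psi 0 g * psi 0 (g * g) + 2 * psi 0 (g * g * g)) / 6)
      (psi k) ≠ 0 := by
  have hc : (Nat.card ↥M.G : ℂ) ≠ 0 := by exact_mod_cast (Nat.card_pos (α := ↥M.G)).ne'
  obtain ⟨z₀, h3, h⟩ := exists_z0
  rw [classInner_def]
  refine mul_ne_zero (inv_ne_zero hc) ?_
  simp only [conj_psi]
  refine Cfsg.Agent.H797.BR.sum_ne_zero_of_krein_cube isCol h (ω₁ := vk 0) (ω := vk k) ?_
  have h1 : (∑ u : Fin 8, ((∑ w, t8 u w : ℕ) : ℂ) * (vk 0 u ^ 3 * vk k u)) =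
      ((∑ u : Fin 8, ((∑ w, t8 u w : ℕ) : ℚ) * (q 0 u ^ 3 * q k u) : ℚ) : ℂ) := by
    simp only [vk_eq]
    push_cast
    rfl
  rw [h1]
  exact_mod_cast krein_ne k

end

end Cfsg.Agent.H966.BT.Psi
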